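import Mathlib
import Cfsg.Prelude.Def_Solvable

set_option autoImplicit false

/-!
Package statements for S4004 (odd order groups with exactly three same-order class sizes).
Each package is a `Prop`; a proof of a package is a theorem of that type (no hypotheses).
-/

namespace Cfsg.Agent.Lib.Helper5.Nse

universe u

/-- [N] Norm trick.  `A` an abelian normal subgroup, `C` a subgroup without nontrivial fixed
points on `A`, `t` an element with `(c t)^i ∈ C t^i`, all `c t` and all `v c t` (`v ∈ A`) of order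
dividing the prime `n`.  Then `A` has exponent dividing `|C|`. -/
def PkgN : Prop :=
  ∀ {G : Type u} [Group G] [Finite G] (A : Subgroup G) [A.Normal],
    (∀ v ∈ A, ∀ w ∈ A, v * w = w * v) →
    ∀ (C : Subgroup G) (t : G) (n : ℕ), n.Prime →
    (∀ c ∈ C, ∀ i : ℕ, ∃ c' ∈ C, (c * t) ^ i = c' * t ^ i) →
    (∀ c ∈ C, (c * t) ^ n = 1) →
    (∀ c ∈ C, ∀ v ∈ A, (v * (c * t)) ^ n = 1) →
    (∀ v ∈ A, (∀ c ∈ C, c * v * c⁻¹ = v) → v = 1) →
    ∀ v ∈ A, v ^ Nat.card C = 1

/-- [STR] A finite solvable group in which every element has order `1`, `p` or `q` (both primes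
dividing the order) has a Frobenius complement of prime order. -/
def PkgStr : Prop :=
  ∀ {G : Type u} [Group G] [Finite G], Group.IsSolvable G →
    ∀ p q : ℕ, p.Prime → q.Prime → p ≠ q → p ∣ Nat.card G → q ∣ Nat.card G →
    (∀ g : G, orderOf g = 1 ∨ orderOf g = p ∨ orderOf g = q) →
    ∃ C : Subgroup G, Cfsg.IsFrobeniusComplement C ∧ (Nat.card ↥C).Prime

/-- [FP] If the number of elements of order `q` is `≡ 1 (mod p)`, a Sylow `p`-subgroup centralizes
an element of order `q`, and then there are at least twice as many elements of order `p q` as of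
order `p`. -/
def PkgFP : Prop :=
  ∀ {G : Type u} [Group G] [Finite G] (p q : ℕ), p.Prime → q.Prime → p ≠ q → q ≠ 2 →
    Nat.card {g : G // orderOf g = q} % p = 1 →
    2 * Nat.card {g : G // orderOf g = p} ≤ Nat.card {g : G // orderOf g = p * q}

/-- [FREE] If no element of order `n` commutes with an element of order `q` (a prime dividing
the group order), then `q` divides the number of elements of order `n`. -/
def PkgFree : Prop :=
  ∀ {G : Type u} [Group G] [Finite G] (q n : ℕ), q.Prime → q ∣ Nat.card G →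
    (∀ x y : G, orderOf x = n → orderOf y = q → x * y ≠ y * x) →
    q ∣ Nat.card {g : G // orderOf g = n}

/-- The arithmetic hypotheses shared by [A1] and [A2]: `N` is the (odd) group order, `m n` the
number of elements of order `n`; `a`, `b` the two possible nonzero values of `m n` for `n ≠ 1`. -/
structure ArithHyp (N : ℕ) (m : ℕ → ℕ) (a b : ℕ) : Prop where
  odd : Odd N
  one : m 1 = 1
  /-- Frobenius: `n ∣ #{x | x^n = 1}` for `n ∣ N`. -/
  frob : ∀ n, n ∣ N → n ∣ ∑ d ∈ n.divisors, m d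
  vals : ∀ n, n ≠ 1 → m n = 0 ∨ m n = a ∨ m n = b
  dvd : ∀ n, m n ≠ 0 → n ∣ N
  pow : ∀ n d, d ∣ n → m n ≠ 0 → m d ≠ 0
  le : ∀ n, n ≠ 0 → ∑ d ∈ n.divisors, m d ≤ N
  /-- from [FP] -/
  fp : ∀ p q, p.Prime → q.Prime → p ≠ q → q ≠ 2 → m q % p = 1 → 2 * m p ≤ m (p * q)
  /-- from [FREE] -/
  free : ∀ p q, p.Prime → q.Prime → p ≠ q → p ∣ N → q ∣ N → m (p * q) = 0 → q ∣ m (p ^ 2)

/-- [A1] Two distinct primes dividing `N` have different numbers of elements of that order. -/
def PkgArith1 : Prop :=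
  ∀ (N : ℕ) (m : ℕ → ℕ) (a b : ℕ), ArithHyp N m a b →
    ∀ p q, p.Prime → q.Prime → p ≠ q → p ∣ N → q ∣ N → m p ≠ m q

/-- [A2] Given [A1]'s conclusion: at most two primes divide `N`, and if `p ≠ q` both do, every
element order is `1`, `p` or `q`. -/
def PkgArith2 : Prop :=
  ∀ (N : ℕ) (m : ℕ → ℕ) (a b : ℕ), ArithHyp N m a b →
    (∀ p q, p.Prime → q.Prime → p ≠ q → p ∣ N → q ∣ N → m p ≠ m q) →
    N.primeFactors.card ≤ 2 ∧
      ∀ p q, p.Prime → q.Prime → p ≠ q → p ∣ N → q ∣ N →
        ∀ n, m n ≠ 0 → n = 1 ∨ n = p ∨ n = q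

end Cfsg.Agent.Lib.Helper5.Nse
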