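import Mathlib
import Cfsg.Prelude.Def_Solvable
import Cfsg.Agent.Lib.Helper5.Nse.Defs
import Cfsg.Agent.Lib.Helper5.OrdType
import Cfsg.Agent.S3993
import Cfsg.Agent.S0144

set_option autoImplicit false

/-!
Assembly for S4004: the packages of `Defs.lean` imply the statement.
-/

namespace Cfsg.Agent.Lib.Helper5.Nse

universe u

open Cfsg.Agent.Lib.Helper5.OrdType

/-- The number of elements of order `n`. -/
noncomputable def mcount (G : Type u) [Group G] (n : ℕ) : ℕ := Nat.card {g : G // orderOf g = n}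

theorem mcount_ne_zero_iff {G : Type u} [Group G] [Finite G] (n : ℕ) :
    mcount G n ≠ 0 ↔ ∃ g : G, orderOf g = n := by
  unfold mcount
  rw [Nat.card_ne_zero]
  constructor
  · rintro ⟨⟨g, hg⟩, _⟩
    exact ⟨g, hg⟩
  · rintro ⟨g, hg⟩
    exact ⟨⟨⟨g, hg⟩⟩, inferInstance⟩

theorem mcount_one (G : Type u) [Group G] : mcount G 1 = 1 := by
  unfold mcount
  rw [Nat.card_eq_one_iff_unique]
  refine ⟨⟨fun x y => ?_⟩, ⟨⟨1, orderOf_one⟩⟩⟩
  apply Subtype.ext
  rw [orderOf_eq_one_iff.mp x.2, orderOf_eq_one_iff.mp y.2]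

theorem sum_mcount {G : Type u} [Group G] [Finite G] {n : ℕ} (hn : n ≠ 0) :
    ∑ d ∈ n.divisors, mcount G d = fcount G n := (fcount_eq_sum hn).symm

theorem two_le_mcount {G : Type u} [Group G] [Finite G] (g : G) (h3 : 3 ≤ orderOf g) :
    2 ≤ mcount G (orderOf g) := by
  unfold mcount
  have hne : g ≠ g⁻¹ := by
    intro h
    have h2 : g ^ 2 = 1 := by
      rw [pow_two]
      nth_rewrite 2 [h]
      exact mul_inv_cancel g
    have h4 := orderOf_le_of_pow_eq_one (by norm_num) h2
    omega
  have hnt : Nontrivial {x : G // orderOf x = orderOf g} :=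
    ⟨⟨⟨g, rfl⟩, ⟨g⁻¹, orderOf_inv g⟩, fun h => hne (congrArg Subtype.val h)⟩⟩
  exact Finite.one_lt_card

theorem arithHyp_of (hFP : PkgFP.{u}) (hFree : PkgFree.{u}) {G : Type u} [Group G] [Finite G]
    (hodd : Odd (Nat.card G))
    (h : (((fun m : ℕ => Nat.card {g : G // orderOf g = m}) ''
      Set.range (orderOf : G → ℕ))).ncard = 3) :
    ∃ a b : ℕ, ArithHyp (Nat.card G) (mcount G) a b := by
  classical
  have hN0 : Nat.card G ≠ 0 := Nat.card_pos.ne'
  have h1T : 1 ∈ ((fun m : ℕ => Nat.card {g : G // orderOf g = m}) ''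
      Set.range (orderOf : G → ℕ)) := ⟨1, ⟨1, orderOf_one⟩, mcount_one G⟩
  have hfin : ((fun m : ℕ => Nat.card {g : G // orderOf g = m}) ''
      Set.range (orderOf : G → ℕ)).Finite :=
    Set.finite_of_ncard_ne_zero (by rw [h]; norm_num)
  have h2 : (((fun m : ℕ => Nat.card {g : G // orderOf g = m}) ''
      Set.range (orderOf : G → ℕ)) \ {1}).ncard = 2 := by
    rw [Set.ncard_sdiff_singleton_of_mem h1T, h]
  obtain ⟨a, b, -, hTab⟩ := Set.ncard_eq_two.mp h2
  refine ⟨a, b, ?_⟩
  have hmem : ∀ g : G, orderOf g ≠ 1 →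
      mcount G (orderOf g) = a ∨ mcount G (orderOf g) = b := by
    intro g hg
    have h3 : 3 ≤ orderOf g := by
      have hd : orderOf g ∣ Nat.card G := orderOf_dvd_natCard g
      have hoddg : Odd (orderOf g) := hodd.of_dvd_nat hd
      have hpos : 0 < orderOf g := orderOf_pos g
      rcases hoddg with ⟨k, hk⟩
      omega
    have h4 := two_le_mcount g h3
    have h5 : mcount G (orderOf g) ∈ (((fun m : ℕ => Nat.card {g : G // orderOf g = m}) ''
      Set.range (orderOf : G → ℕ)) \ {1}) := by
      refine ⟨⟨orderOf g, ⟨g, rfl⟩, rfl⟩, ?_⟩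
      simp only [Set.mem_singleton_iff]
      omega
    rw [hTab] at h5
    simpa using h5
  refine
    { odd := hodd
      one := mcount_one G
      frob := ?_
      vals := ?_
      dvd := ?_
      pow := ?_
      le := ?_
      fp := ?_
      free := ?_ }
  · intro n hn
    have hn0 : n ≠ 0 := by
      rintro rfl
      rw [zero_dvd_iff] at hn
      exact hN0 hn
    rw [sum_mcount hn0]
    exact Cfsg.Agent.S3993.result n hn
  · intro n hn1
    by_cases h0 : mcount G n = 0
    · exact Or.inl h0
    · right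
      obtain ⟨g, hg⟩ := (mcount_ne_zero_iff n).mp h0
      rw [← hg]
      exact hmem g (by rw [hg]; exact hn1)
  · intro n h0
    obtain ⟨g, hg⟩ := (mcount_ne_zero_iff n).mp h0
    rw [← hg]
    exact orderOf_dvd_natCard g
  · intro n d hd h0
    obtain ⟨g, hg⟩ := (mcount_ne_zero_iff n).mp h0
    rw [mcount_ne_zero_iff]
    refine ⟨g ^ (orderOf g / d), ?_⟩
    exact orderOf_pow_orderOf_div (orderOf_pos g).ne' (hg ▸ hd)
  · intro n hn
    rw [sum_mcount hn]
    unfold fcount
    exact Finite.card_subtype_le _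
  · intro p q hp hq hpq hq2 hmod
    exact hFP p q hp hq hpq hq2 hmod
  · intro p q hp hq hpq _ hqN h0
    apply hFree q (p ^ 2) hq hqN
    intro x y hx hy hcomm
    have hdiv : p ^ 2 / p = p := by
      rw [pow_two]
      exact Nat.mul_div_cancel _ hp.pos
    have h1 : orderOf (x ^ p) = p := by
      have h := orderOf_pow_orderOf_div (x := x) (n := p) (orderOf_pos x).ne'
        (by rw [hx]; exact dvd_pow_self p two_ne_zero)
      rw [hx, hdiv] at h
      exact h
    have hc : Commute x y := hcomm
    have h2 : Commute (x ^ p) y := hc.pow_left p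
    have h3 : orderOf (x ^ p * y) = p * q := by
      rw [h2.orderOf_mul_eq_mul_orderOf_of_coprime
        (by rw [h1, hy]; exact (Nat.coprime_primes hp hq).mpr hpq), h1, hy]
    exact (mcount_ne_zero_iff (p * q)).mpr ⟨_, h3⟩ h0

/-- The packages imply S4004. -/
theorem s4004_of (hStr : PkgStr.{u}) (hFP : PkgFP.{u}) (hFree : PkgFree.{u}) (hA1 : PkgArith1)
    (hA2 : PkgArith2) {G : Type u} [Group G] [Finite G] (hodd : Odd (Nat.card G))
    (h : (((fun m : ℕ => Nat.card {g : G // orderOf g = m}) ''
      Set.range (orderOf : G → ℕ))).ncard = 3) :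
    (Nat.card G).primeFactors.card ≤ 2 ∧
      ((Nat.card G).primeFactors.card = 2 →
        (∀ (p : ℕ) [Fact p.Prime] (P : Sylow p G), p ∣ Nat.card G →
          Monoid.exponent ↥(P : Subgroup G) = p) ∧
        ∃ C : Subgroup G, Cfsg.IsFrobeniusComplement C ∧ (Nat.card ↥C).Prime) := by
  classical
  have hN0 : Nat.card G ≠ 0 := Nat.card_pos.ne'
  obtain ⟨a, b, hAH⟩ := arithHyp_of hFP hFree hodd h
  have hne := hA1 _ _ a b hAH
  obtain ⟨hcard, hord⟩ := hA2 _ _ a b hAH hne
  refine ⟨hcard, fun h2 => ?_⟩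
  obtain ⟨p, q, hpq, hpf⟩ := Finset.card_eq_two.mp h2
  have hp : p ∈ (Nat.card G).primeFactors := by rw [hpf]; simp
  have hq : q ∈ (Nat.card G).primeFactors := by rw [hpf]; simp
  have hpp := Nat.prime_of_mem_primeFactors hp
  have hqp := Nat.prime_of_mem_primeFactors hq
  have hpN := Nat.dvd_of_mem_primeFactors hp
  have hqN := Nat.dvd_of_mem_primeFactors hq
  have hord' : ∀ g : G, orderOf g = 1 ∨ orderOf g = p ∨ orderOf g = q := by
    intro g
    exact hord p q hpp hqp hpq hpN hqN (orderOf g) ((mcount_ne_zero_iff _).mpr ⟨g, rfl⟩)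
  constructor
  · intro p' hp' P hp'N
    have hpow : ∀ x : (P : Subgroup G), x ^ p' = 1 := by
      intro x
      obtain ⟨k, hk⟩ := (IsPGroup.iff_orderOf.mp P.isPGroup') x
      have hox : orderOf (x : G) = p' ^ k := by
        rw [Subgroup.orderOf_coe]
        exact hk
      have hdvd : orderOf (x : G) ∣ p' := by
        rcases hord' (x : G) with h1 | h1 | h1
        · rw [h1]
          exact one_dvd _
        · have hk0 : k ≠ 0 := by
            rintro rfl
            rw [pow_zero] at hox
            rw [hox] at h1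
            exact hpp.one_lt.ne h1
          have h3 : p' ∣ p := by
            rw [← h1, hox]
            exact dvd_pow_self p' hk0
          have h4 : p' = p := (Nat.prime_dvd_prime_iff_eq hp'.out hpp).mp h3
          rw [h1, h4]
        · have hk0 : k ≠ 0 := by
            rintro rfl
            rw [pow_zero] at hox
            rw [hox] at h1
            exact hqp.one_lt.ne h1
          have h3 : p' ∣ q := by
            rw [← h1, hox]
            exact dvd_pow_self p' hk0
          have h4 : p' = q := (Nat.prime_dvd_prime_iff_eq hp'.out hqp).mp h3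
          rw [h1, h4]
      apply Subtype.ext
      rw [Subgroup.coe_pow]
      exact orderOf_dvd_iff_pow_eq_one.mp hdvd
    have h5 : Monoid.exponent ↥(P : Subgroup G) ∣ p' :=
      Monoid.exponent_dvd_of_forall_pow_eq_one hpow
    have h6 : Monoid.exponent ↥(P : Subgroup G) ≠ 1 := by
      intro h7
      have h8 : Subsingleton ↥(P : Subgroup G) := Monoid.exp_eq_one_iff.mp h7
      exact P.ne_bot_of_dvd_card hp'N (Subgroup.eq_bot_of_subsingleton _)
    rcases (Nat.dvd_prime hp'.out).mp h5 with h7 | h7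
    · exact absurd h7 h6
    · exact h7
  · have hsol : Group.IsSolvable G := by
      apply Cfsg.Agent.S0144.result p q ((Nat.card G).factorization p)
        ((Nat.card G).factorization q) hpp hqp
      have h1 := Nat.prod_factorization_pow_eq_self hN0
      rw [Finsupp.prod, Nat.support_factorization, hpf, Finset.prod_pair hpq] at h1
      exact h1.symm
    exact hStr hsol p q hpp hqp hpq hpN hqN hord'

end Cfsg.Agent.Lib.Helper5.Nse
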